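import Cfsg.Agent.H16.FM
import Cfsg.Prelude.Def_Chevalley

/-! Words in the root elements of a Chevalley group, evaluated on packed matrices. -/

set_option autoImplicit false

namespace H26.Chev
open H16 Finset Cfsg.Lie Matrix

/-- entry of a sparse matrix -/
def ent (L : List (ℕ × ℕ × ℤ)) (i j : ℕ) : ℤ := (L.map fun x => if x.1 = i ∧ x.2.1 = j then x.2.2 else 0).sum

theorem ent_app (L L' : List (ℕ × ℕ × ℤ)) (i j : ℕ) : ent (L ++ L') i j = ent L i j + ent L' i j := by simp [ent]

theorem ent_cons (x : ℕ × ℕ × ℤ) (L : List (ℕ × ℕ × ℤ)) (i j : ℕ) :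
    ent (x :: L) i j = (if x.1 = i ∧ x.2.1 = j then x.2.2 else 0) + ent L i j := rfl

theorem ent_range (f : ℕ → ℕ × ℕ × ℤ) (n i j : ℕ) : ent ((List.range n).map f) i j =
    ∑ k ∈ range n, if (f k).1 = i ∧ (f k).2.1 = j then (f k).2.2 else 0 := by rw [ent, List.map_map]; rfl

/-- array access -/
noncomputable def gt {α : Type} (d : α) (a : Array α) (i : ℕ) : α := H16.nth d a.toList i

theorem gt_eq {α : Type} (d : α) (a : Array α) (i : ℕ) : gt d a i = a.getD i d := by simp [gt, H16.nth_eq_getD]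

/-- the chain part of a root element -/
noncomputable def chL (m : ℕ) (t : ℤ) (L : List (ℕ × Array (ℕ × ℤ))) : List (ℕ × ℕ × ℤ) :=
  List.rec [] (fun e _ ih => List.rec (motive := fun _ => ℤ → List (ℕ × ℕ × ℤ)) (fun _ => ih)
    (fun c _ ih s => (Nat.add m c.1, Nat.add m e.1, Int.mul c.2 s) :: ih (Int.mul s t)) e.2.toList t) L

theorem chL_eq (m : ℕ) (t : ℤ) (L : List (ℕ × Array (ℕ × ℤ))) : chL m t L = L.flatMap fun e => e.2.toList.zipIdx.map fun c =>
    (m + c.1.1, m + e.1, c.1.2 * t ^ (c.2 + 1)) := by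
  induction L with
  | nil => rfl
  | cons e L ih =>
    have : ∀ (Z : List (ℕ × ℤ)) k, List.rec (motive := fun _ => ℤ → List (ℕ × ℕ × ℤ)) (fun _ => chL m t L)
        (fun c _ ih s => (Nat.add m c.1, Nat.add m e.1, Int.mul c.2 s) :: ih (Int.mul s t)) Z (t ^ (k + 1)) =
        (Z.zipIdx k).map (fun c => (m + c.1.1, m + e.1, c.1.2 * t ^ (c.2 + 1))) ++ chL m t L := fun Z => by
      induction Z with
      | nil => exact fun _ => rfl
      | cons c Z ih => exact fun k => congrArg _ ((congrArg _ (pow_succ t _).symm).trans (ih _))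
    rw [List.flatMap_cons, ← ih, ← this, zero_add, pow_one]; rfl

variable (D : ChevalleyDatum)

/-- the root element minus the identity -/
noncomputable def trip (r : ℕ) (t : ℤ) : List (ℕ × ℕ × ℤ) := frc (D.rank + gt 0 D.negIdx r) fun m =>
  (List.range D.rank).map (fun i => (D.rank + r, i, -gt 0 (gt #[] D.cartanSR i) r * t)) ++
  (List.range D.rank).map (fun i => (i, m, gt 0 (gt #[] D.coroot r) i * t)) ++ (D.rank + r, m, -(t ^ 2)) ::
  chL D.rank t (gt #[] D.chain r).toList

/-- position of an index -/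
def ix : D.Idx ≃ Fin (D.rank + D.nroots) := finSumFinEquiv

variable {D}

theorem ent_chain (L : List (ℕ × Array (ℕ × ℤ))) (m i j : ℕ) (t : ℤ) : ent (L.flatMap fun e => e.2.toList.zipIdx.map fun c =>
    (m + c.1.1, m + e.1, c.1.2 * t ^ (c.2 + 1))) i j = if m ≤ i ∧ m ≤ j then (((L.filter fun e => e.1 = j - m).flatMap fun e =>
    (e.2.toList.zipIdx.filter fun q => q.1.1 = i - m).map fun q => (q.2 + 1, q.1.2)).map fun km => km.2 * t ^ km.1).sum else 0 := by
  induction L with
  | nil => simp [ent]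
  | cons e L ih =>
    have : ∀ Z : List ((ℕ × ℤ) × ℕ), ent (Z.map fun c => (m + c.1.1, m + e.1, c.1.2 * t ^ (c.2 + 1))) i j =
        if (m ≤ i ∧ m ≤ j) ∧ e.1 = j - m then ((Z.filter fun q => q.1.1 = i - m).map fun q => q.1.2 * t ^ (q.2 + 1)).sum else 0 :=
      fun Z => by
      induction Z with
      | nil => simp [ent]
      | cons c Z ih =>
        rw [List.map_cons, ent_cons, ih, List.filter_cons]
        simp only [decide_eq_true_eq]
        split_ifs <;> first | omega | simp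
    rw [List.flatMap_cons, ent_app, ih, this, List.filter_cons]
    simp only [decide_eq_true_eq]
    split_ifs <;> first | tauto | simp [Function.comp_def]

theorem xMat_eq (F : Type*) [Field F] (r : Fin D.nroots) (t : ℤ) (h : gt 0 D.negIdx r ≠ r)
    (h' : ∀ e ∈ (gt #[] D.chain r).toList, e.1 ≠ r ∧ e.1 ≠ gt 0 D.negIdx r) (a b : D.Idx) :
    D.xMat F r t a b = (1 : Matrix _ _ F) a b + ent (trip D r t) (ix D a) (ix D b) := by
  have s1 : ∀ (P : Prop) [Decidable P] (j : ℕ) (c : ℕ → ℤ), (∑ k ∈ range D.rank, if P ∧ k = j then c k else 0) =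
      if P ∧ j < D.rank then c j else 0 := fun P _ j c => by by_cases P <;> simp [*]
  have s2 : ∀ (P : Prop) [Decidable P] (j : ℕ) (c : ℕ → ℤ), (∑ k ∈ range D.rank, if k = j ∧ P then c k else 0) =
      if P ∧ j < D.rank then c j else 0 := fun P _ j c => by by_cases P <;> simp [*]
  rw [trip, frc_eq, ent_app, ent_app, ent_cons, chL_eq, ent_chain, ent_range, ent_range]
  simp only [gt_eq, s1, s2] at h h' ⊢
  have f : ∀ s : ℕ, s = r ∨ s = D.negIdx.getD r 0 → ((D.chain.getD r #[]).toList.filter fun e => e.1 = s) = [] := fun s hs =>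
    List.filter_eq_nil_iff.2 fun e he => by have := h' e he; simp only [decide_eq_true_eq]; omega
  have l : ∀ (i : Fin D.rank) (k : ℕ), ¬ D.rank ≤ i ∧ D.rank + k ≠ i := fun i k => by omega
  rcases a with a | a <;> rcases b with b | b <;>
    simp only [ChevalleyDatum.xMat, ix, one_apply, ChevalleyDatum.chainCoeff, of_apply, finSumFinEquiv_apply_left,
      finSumFinEquiv_apply_right, Fin.val_castAdd, Fin.val_natAdd, Nat.add_sub_cancel_left]
  all_goals generalize D.negIdx.getD r 0 = m at *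
  · simp [l]
  · by_cases h1 : b = r <;> simp [l, h1, h, eq_comm (a := m)]
  · simp [l, Fin.ext_iff, eq_comm]
  · by_cases h1 : b = r
    · rw [f b (.inl (h1 ▸ rfl))]; simp [h1, h]
    by_cases h2 : b = m
    · subst h2
      rw [f b (.inr rfl)]
      by_cases h3 : a = b
      · simp [h3, h1, h.symm]
      · simp [h3, h1, Fin.val_inj, eq_comm (a := r)]
    · simp [h1, h2, Ne.symm h2, Function.comp_def]

variable {n p : ℕ} (q : FP n n p)

/-- the product of `1 + L` with `X`, not reduced -/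
noncomputable def acc (X : ℕ) (L : List (ℕ × ℕ × ℤ)) : ℕ := List.rec (fld (q.w * (n * n)) X 0) (fun x _ ih => Nat.add
  (Nat.shiftLeft (Nat.mul (Int.toNat (Int.emod x.2.2 p)) (Nat.land (Nat.shiftRight X (Nat.mul q.W x.2.1)) q.M)) (Nat.mul q.W x.1)) ih) L

variable {q}

theorem toM_acc (h : q.OK) {X : ℕ} (hX : FP.Nm q.w p (n * n) X) {L : List (ℕ × ℕ × ℤ)} (hL : ∀ x ∈ L, x.1 < n ∧ x.2.1 < n)
    (hb : p - 1 + L.length * ((p - 1) * (p - 1)) < 2 ^ q.w) : toM n n p q.w (q.red (acc q X L)) =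
    (1 + of fun i j : Fin n => (ent L i j : ZMod p)) * toM n n p q.w X := by
  have e2 : q.W = q.w * n := congrArg FP.W h.1
  have e3 : q.M = 1 <<< (q.w * n) - 1 := congrArg FP.M h.1
  have p0 : (0 : ℤ) < p := by have := h.2.2.2.1; omega
  have : ∃ a, Rep (n * n) q.w (p - 1 + L.length * ((p - 1) * (p - 1))) (acc q X L) a ∧ ∀ i j : Fin n, (a (n * i + j) : ZMod p) =
      toM n n p q.w X i j + ∑ k : Fin n, ent L i k * toM n n p q.w X k j := by
    clear hb
    induction L with
    | nil => exact ⟨fld q.w X, (rep_fld (fld_lt _ X 0)).congr fun j hj => ⟨by simpa using fld_fld hj X 0,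
        by simpa using Nat.le_sub_one_of_lt (hX j hj)⟩, fun i j => by simp [ent, toM]⟩
    | cons x L ih =>
      obtain ⟨a, r, e⟩ := ih fun y hy => hL y (List.mem_cons_of_mem _ hy)
      obtain ⟨h1, h2⟩ := hL x List.mem_cons_self
      have r1 : Rep n (q.w * n) (p - 1) ((x.2.2 % p).toNat * 2 ^ (q.w * n * x.1)) fun i => if i = x.1 then (x.2.2 % p).toNat else 0 :=
        ⟨by simp [h1], fun j _ => by have := Int.emod_lt_of_pos x.2.2 p0; beta_reduce; split_ifs <;> omega⟩
      have r2 : Rep n q.w (p - 1) (X >>> (q.W * x.2.1) &&& q.M) fun j => fld q.w X (n * x.2.1 + j) := by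
        rw [e3, e2, Nat.one_shiftLeft, Nat.and_two_pow_sub_one_eq_mod, Nat.shiftRight_eq_div_pow]
        exact (rep_fld (fld_lt (q.w * n) X _)).congr fun j hj => ⟨fld_fld hj X _, Nat.le_sub_one_of_lt (hX _ (FP.lt_mul_of h2 hj))⟩
      have r3 := (r1.outer r2).add r
      rw [mul_right_comm, ← Nat.shiftLeft_eq, ← e2] at r3
      refine ⟨_, r3.mono (by rw [List.length_cons]; nlinarith), fun i j => ?_⟩
      simp only [ent_cons, Int.cast_add, add_mul, sum_add_distrib, Nat.cast_add, e, Nat.mul_add_div h.2.1, Nat.div_eq_of_lt j.2,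
        Nat.mul_add_mod, Nat.mod_eq_of_lt j.2, add_zero]
      rw [add_left_comm, add_right_inj, add_left_inj, Fintype.sum_eq_single (⟨_, h2⟩ : Fin n) fun k hk => by
        rw [if_neg fun e => hk (Fin.ext e.2.symm)]; simp]
      have : ((x.2.2 % p).toNat : ZMod p) = x.2.2 := by
        rw [← Int.cast_natCast, Int.toNat_of_nonneg (Int.emod_nonneg _ p0.ne'), ZMod.intCast_mod]
      by_cases c : x.1 = i <;> simp [c, eq_comm (a := i.1), this, toM]
  obtain ⟨a, r, e⟩ := this
  ext i j
  rw [toM, of_apply, h.red _ _ (FP.lt_mul_of i.2 j.2), ZMod.natCast_mod, r.fld hb _ (FP.lt_mul_of i.2 j.2), e, add_mul, one_mul,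
    Matrix.add_apply, mul_apply]
  rfl

variable (D q)

/-- the coded root element -/
noncomputable def tr (k : ℕ) : List (ℕ × ℕ × ℤ) := frc (k / 2) fun r => frc (k % 2 + 1) fun t => trip D r t

/-- apply the coded root elements -/
noncomputable def run (w : List ℕ) : ℕ → ℕ := List.rec (fun X => X)
  (fun k _ ih X => frc (acc q X (tr D k)) fun Y => frc (q.red Y) ih) w

/-- consistency of the tables -/
noncomputable def okK (k : ℕ) : Bool := frc (k / 2) fun r => frc (gt 0 D.negIdx r) fun m => m != r &&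
  (gt #[] D.chain r).toList.all (fun e => e.1 != r && e.1 != m) && (tr D k).all (fun x => Nat.blt x.1 n && Nat.blt x.2.1 n) &&
  p - 1 + (tr D k).length * ((p - 1) * (p - 1)) < 2 ^ q.w

/-- `w` is a word for the conjugate of `A` -/
noncomputable def chk (P A : ℕ) (w : List ℕ) : Bool := q.run fun q => frc P fun P =>
  Nat.beq (Nat.add (ltAll (D.nroots * 2) w) (Nat.xor (run D q w P) (q.mm P A))) 0

/-- change of coordinates -/
noncomputable def ri (F : Type) [Field F] : GL (Fin (D.rank + D.nroots)) F ≃* GL D.Idx F :=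
  Units.mapEquiv (reindexAlgEquiv F F (ix D).symm).toMulEquiv

variable {D q}

theorem mem [Fact p.Prime] {q : FP (D.rank + D.nroots) (D.rank + D.nroots) p} (h : q.OK) (ok : ∀ k < D.nroots * 2, okK D q k = true)
    {P A : ℕ} {w : List ℕ} {a b : GL _ (ZMod p)} (hb : q.Rp b P) (ha : q.Rp a A) (c : chk D q P A w = true) :
    ri D _ (b * a * b⁻¹) ∈ D.group (ZMod p) := by
  rw [chk, FP.run_eq, frc_eq] at c
  simp only [Nat.beq_eq, Nat.add_eq, Nat.add_eq_zero_iff] at c
  have := xor_zero c.2 ▸ hb.mul h ha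
  replace c := ltAll_zero c.1
  generalize b * a = y at this
  suffices ∀ P, FP.Nm q.w p _ P → q.Rp y (run D q w P) → ∃ b, q.Rp b P ∧ ri D _ (y * b⁻¹) ∈ D.group (ZMod p) by
    obtain ⟨b', e, m⟩ := this P hb.1 ‹_›
    rwa [hb.eq e]
  clear this
  induction w with
  | nil => exact fun P _ e => ⟨y, e, by rw [mul_inv_cancel, map_one]; exact one_mem _⟩
  | cons k w ih =>
    intro P hP e
    have hk := c k List.mem_cons_self
    have o := ok k hk
    simp only [okK, frc_eq, Nat.blt_eq, Bool.and_eq_true, bne_iff_ne, List.all_eq_true, decide_eq_true_eq] at o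
    obtain ⟨b, r, m⟩ := ih (fun j hj => c j (List.mem_cons_of_mem _ hj)) _ (h.nm_red _) e
    have e := r.2.trans (toM_acc h hP o.1.2 o.2)
    obtain ⟨⟨x, e1⟩, b', e2⟩ := IsUnit.mul_iff.1 (e ▸ b.isUnit)
    obtain rfl : b = x * b' := Units.ext (by rw [e, Units.val_mul, e1, e2])
    refine ⟨b', ⟨hP, e2⟩, ?_⟩
    rw [show y * b'⁻¹ = y * (x * b')⁻¹ * x by group, map_mul]
    refine mul_mem m (Subgroup.subset_closure ⟨⟨k / 2, by omega⟩, ((k % 2 + 1 : ℕ) : ℤ), Matrix.ext fun i j => ?_⟩)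
    rw [xMat_eq _ _ _ o.1.1.1 o.1.1.2]
    simp [ri, e1, one_apply, tr]

theorem emb {A B C : Type*} [Group A] [Group B] [Group C] {K : Subgroup B} {g : ℕ → A} {b : A} {m : ℕ} (ρ : A ≃* B)
    (f : C ≃* H16.gen g m) (h : ∀ k < m, ρ (b * g k * b⁻¹) ∈ K) : ∃ φ : C →* K, Function.Injective φ :=
  let e := ((MulAut.conj b).trans ρ).toMonoidHom
  have h : H16.gen g m ≤ K.comap e := H16.gen_le.2 h
  ⟨((e.comp (Subgroup.subtype _)).codRestrict _ fun x => h x.2).comp f.toMonoidHom,
    fun _ _ c => f.injective (Subtype.ext (((MulAut.conj b).trans ρ).injective (Subtype.ext_iff.1 c :)))⟩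

end H26.Chev
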